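import Mathlib
/-!
Arithmetic of the orders of the groups of Lie type.
-/
set_option autoImplicit false

namespace Cfsg.Agent.H83b.LieOrd

open Finset

/-- the conclusion wanted -/
def Bd (p X : ℕ) : Prop := X < p ^ (3 * X.factorization p) ∧ X ^ 3 < p ^ (8 * X.factorization p)

/-- main reduction -/
lemma bd_of {p f N X c M : ℕ} (hp : p.Prime) (hX : 0 < X) (hc : 0 < c) (hcp : Nat.Coprime c p)
    (h : c * X = (p ^ f) ^ N * M) (hM : M ^ 3 < (p ^ f) ^ (5 * N)) : Bd p X := by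
  have hq : 0 < p ^ f := pow_pos hp.pos f
  have h1 : p ^ (f * N) ∣ X := by
    have h2 : p ^ (f * N) ∣ c * X := by rw [h, pow_mul]; exact Dvd.intro _ rfl
    exact (Nat.Coprime.pow_right _ hcp).symm.dvd_of_dvd_mul_left h2
  have h2 : f * N ≤ X.factorization p := (hp.pow_dvd_iff_le_factorization hX.ne').1 h1
  have h3 : X ^ 3 < p ^ (8 * (f * N)) := by
    have h4 : X ≤ (p ^ f) ^ N * M := by rw [← h]; exact Nat.le_mul_of_pos_left X hc
    calc X ^ 3 ≤ ((p ^ f) ^ N * M) ^ 3 := Nat.pow_le_pow_left h4 3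
      _ = (p ^ f) ^ (3 * N) * M ^ 3 := by rw [mul_pow, ← pow_mul, mul_comm N 3]
      _ < (p ^ f) ^ (3 * N) * (p ^ f) ^ (5 * N) := Nat.mul_lt_mul_of_pos_left hM (pow_pos hq _)
      _ = p ^ (8 * (f * N)) := by rw [← pow_add, ← pow_mul]; congr 1; ring
  have h5 : p ^ (8 * (f * N)) ≤ p ^ (8 * X.factorization p) := Nat.pow_le_pow_right hp.pos (Nat.mul_le_mul_left _ h2)
  have h6 : X ^ 3 < p ^ (8 * X.factorization p) := lt_of_lt_of_le h3 h5
  refine ⟨?_, h6⟩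
  by_contra hcon
  push Not at hcon
  have h7 : (p ^ (3 * X.factorization p)) ^ 3 ≤ X ^ 3 := Nat.pow_le_pow_left hcon 3
  rw [← pow_mul] at h7
  have h8 : p ^ (8 * X.factorization p) ≤ p ^ (3 * X.factorization p * 3) :=
    Nat.pow_le_pow_right hp.pos (by omega)
  omega

/-- bound for the cofactor -/
lemma cube_lt {q M E N : ℕ} (hq : 1 < q) (hM : M < q ^ E) (h : 3 * E ≤ 5 * N) : M ^ 3 < q ^ (5 * N) := by
  calc M ^ 3 < (q ^ E) ^ 3 := Nat.pow_lt_pow_left hM (by norm_num)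
    _ = q ^ (3 * E) := by rw [← pow_mul, mul_comm]
    _ ≤ q ^ (5 * N) := Nat.pow_le_pow_right (by omega) h

lemma sub_one_lt {q k : ℕ} (hq : 1 < q) : q ^ k - 1 < q ^ k := Nat.sub_lt (pow_pos (by omega) _) one_pos

lemma add_one_le {q k : ℕ} (hq : 1 < q) (hk : 1 ≤ k) : q ^ k + 1 ≤ q ^ (k + 1) := by
  have h1 : 1 ≤ q ^ k := Nat.one_le_pow _ _ (by omega)
  rw [pow_succ]
  nlinarith

lemma prod_sub_le {q : ℕ} (hq : 1 < q) (m : ℕ) (g : ℕ → ℕ) :
    ∏ i ∈ range m, (q ^ g i - 1) ≤ q ^ (∑ i ∈ range m, g i) := by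
  rw [← Finset.prod_pow_eq_pow_sum]
  exact Finset.prod_le_prod' fun i _ => (sub_one_lt hq).le

lemma prod_sub_lt {q : ℕ} (hq : 1 < q) {m : ℕ} (hm : 0 < m) (g : ℕ → ℕ) :
    ∏ i ∈ range m, (q ^ g i - 1) < q ^ (∑ i ∈ range m, g i) := by
  obtain ⟨k, rfl⟩ := Nat.exists_eq_succ_of_ne_zero hm.ne'
  rw [Finset.prod_range_succ, Finset.sum_range_succ, pow_add]
  calc (∏ i ∈ range k, (q ^ g i - 1)) * (q ^ g k - 1) ≤ q ^ (∑ i ∈ range k, g i) * (q ^ g k - 1) :=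
        Nat.mul_le_mul_right _ (prod_sub_le hq k g)
    _ < q ^ (∑ i ∈ range k, g i) * q ^ g k := Nat.mul_lt_mul_of_pos_left (sub_one_lt hq) (pow_pos (by omega) _)

lemma sum_even (m : ℕ) : ∑ i ∈ range m, 2 * (i + 1) = m * (m + 1) := by
  induction m with
  | zero => rfl
  | succ m ih => rw [Finset.sum_range_succ, ih]; ring

/-- symplectic and odd orthogonal -/
lemma bd_C {p f m X c : ℕ} (hp : p.Prime) (hf : 1 ≤ f) (hm : 2 ≤ m) (hX : 0 < X) (hc : 0 < c) (hcp : Nat.Coprime c p)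
    (h : c * X = (p ^ f) ^ (m ^ 2) * ∏ i ∈ range m, ((p ^ f) ^ (2 * (i + 1)) - 1)) : Bd p X := by
  have hq : 1 < p ^ f := Nat.one_lt_pow (by omega) hp.one_lt
  refine bd_of hp hX hc hcp h (cube_lt hq (E := m * (m + 1)) ?_ ?_)
  · rw [← sum_even]; exact prod_sub_lt hq (by omega) _
  · nlinarith

lemma coprime_of_dvd_sub {p f k c : ℕ} (hf : 1 ≤ f) (hk : 1 ≤ k) (hp : p.Prime) (h : c ∣ (p ^ f) ^ k - 1) : Nat.Coprime c p := by
  have h1 : 1 ≤ (p ^ f) ^ k := Nat.one_le_pow _ _ (pow_pos hp.pos _)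
  refine Nat.Coprime.coprime_dvd_left h ?_
  have h2 : Nat.Coprime ((p ^ f) ^ k - 1) ((p ^ f) ^ k) := by
    rw [Nat.coprime_self_sub_left h1]; exact Nat.coprime_one_left _
  rw [← pow_mul] at h2 ⊢
  exact (Nat.coprime_pow_right_iff (by positivity) _ _).1 h2

lemma coprime_of_dvd_add {p f k c : ℕ} (hf : 1 ≤ f) (hk : 1 ≤ k) (hp : p.Prime) (h : c ∣ (p ^ f) ^ k + 1) : Nat.Coprime c p := by
  refine Nat.Coprime.coprime_dvd_left h ?_
  have h2 : Nat.Coprime ((p ^ f) ^ k + 1) ((p ^ f) ^ k) := by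
    rw [Nat.coprime_self_add_left]; exact Nat.coprime_one_left _
  rw [← pow_mul] at h2 ⊢
  exact (Nat.coprime_pow_right_iff (by positivity) _ _).1 h2

/-- plus type -/
lemma bd_Dp {p f m X c : ℕ} (hp : p.Prime) (hf : 1 ≤ f) (hm : 4 ≤ m) (hX : 0 < X) (hc : 0 < c) (hcp : Nat.Coprime c p)
    (h : c * X = (p ^ f) ^ (m * (m - 1)) * ((p ^ f) ^ m - 1) * ∏ i ∈ range (m - 1), ((p ^ f) ^ (2 * (i + 1)) - 1)) : Bd p X := by
  have hq : 1 < p ^ f := Nat.one_lt_pow (by omega) hp.one_lt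
  rw [mul_assoc] at h
  refine bd_of hp hX hc hcp h (cube_lt hq (E := m + (m - 1) * (m - 1 + 1)) ?_ ?_)
  · rw [pow_add, ← sum_even]
    calc ((p ^ f) ^ m - 1) * ∏ i ∈ range (m - 1), ((p ^ f) ^ (2 * (i + 1)) - 1) ≤
        (p ^ f) ^ m * ∏ i ∈ range (m - 1), ((p ^ f) ^ (2 * (i + 1)) - 1) := Nat.mul_le_mul_right _ (sub_one_lt hq).le
      _ < _ := Nat.mul_lt_mul_of_pos_left (prod_sub_lt hq (by omega) _) (pow_pos (by omega) _)
  · obtain ⟨k, rfl⟩ := Nat.exists_eq_add_of_le hm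
    rw [show 4 + k - 1 = 3 + k by omega]
    nlinarith

/-- minus type -/
lemma bd_Dm {p f m X c : ℕ} (hp : p.Prime) (hf : 1 ≤ f) (hm : 4 ≤ m) (hX : 0 < X) (hc : 0 < c) (hcp : Nat.Coprime c p)
    (h : c * X = (p ^ f) ^ (m * (m - 1)) * ((p ^ f) ^ m + 1) * ∏ i ∈ range (m - 1), ((p ^ f) ^ (2 * (i + 1)) - 1)) : Bd p X := by
  have hq : 1 < p ^ f := Nat.one_lt_pow (by omega) hp.one_lt
  rw [mul_assoc] at h
  refine bd_of hp hX hc hcp h (cube_lt hq (E := (m + 1) + (m - 1) * (m - 1 + 1)) ?_ ?_)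
  · rw [pow_add, ← sum_even]
    calc ((p ^ f) ^ m + 1) * ∏ i ∈ range (m - 1), ((p ^ f) ^ (2 * (i + 1)) - 1) ≤
        (p ^ f) ^ (m + 1) * ∏ i ∈ range (m - 1), ((p ^ f) ^ (2 * (i + 1)) - 1) :=
          Nat.mul_le_mul_right _ (add_one_le hq (by omega))
      _ < _ := Nat.mul_lt_mul_of_pos_left (prod_sub_lt hq (by omega) _) (pow_pos (by omega) _)
  · obtain ⟨k, rfl⟩ := Nat.exists_eq_add_of_le hm
    rw [show 4 + k - 1 = 3 + k by omega]
    nlinarith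


lemma sum_id2 (n : ℕ) : 2 * ∑ i ∈ range n, i = n * (n - 1) := by
  rw [mul_comm, Finset.sum_range_id_mul_two]

lemma sum_add2 (k : ℕ) : 2 * ∑ i ∈ range k, (i + 2) = k * (k + 3) := by
  induction k with
  | zero => rfl
  | succ k ih => rw [Finset.sum_range_succ, mul_add, ih]; ring

lemma prod_GL {q : ℕ} (hq : 1 < q) (n : ℕ) : ∏ i : Fin n, (q ^ n - q ^ (i : ℕ)) =
    q ^ (∑ i ∈ range n, i) * ∏ i ∈ range n, (q ^ (i + 1) - 1) := by
  rw [Fin.prod_univ_eq_prod_range (fun i => q ^ n - q ^ i) n, ← Finset.prod_range_reflect (fun i => q ^ (i + 1) - 1) n,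
    ← Finset.prod_pow_eq_pow_sum, ← Finset.prod_mul_distrib]
  apply Finset.prod_congr rfl
  intro i hi
  have hi := Finset.mem_range.1 hi
  rw [Nat.mul_sub, mul_one, ← pow_add]
  congr 2
  omega

/-- linear groups -/
lemma bd_A {p f n X c : ℕ} (hp : p.Prime) (hf : 1 ≤ f) (hn : 3 ≤ n) (hX : 0 < X) (hc : 0 < c) (hcp : Nat.Coprime c p)
    (h : c * ((p ^ f - 1) * X) = ∏ i : Fin n, ((p ^ f) ^ n - (p ^ f) ^ (i : ℕ))) : Bd p X := by
  have hq : 1 < p ^ f := Nat.one_lt_pow (by omega) hp.one_lt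
  obtain ⟨k, rfl⟩ := Nat.exists_eq_add_of_le' hn
  rw [prod_GL hq, Finset.prod_range_succ', zero_add, pow_one] at h
  have h1 : c * X = (p ^ f) ^ (∑ i ∈ range (k + 3), i) * ∏ i ∈ range (k + 2), ((p ^ f) ^ (i + 1 + 1) - 1) := by
    have h2 : 0 < p ^ f - 1 := by omega
    apply Nat.eq_of_mul_eq_mul_left h2
    calc (p ^ f - 1) * (c * X) = c * ((p ^ f - 1) * X) := by ring
      _ = _ := by rw [h]; ring
  have e1 := sum_id2 (k + 3)
  have e2 := sum_add2 (k + 2)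
  refine bd_of hp hX hc hcp h1 (cube_lt hq (E := ∑ i ∈ range (k + 2), (i + 2)) (prod_sub_lt hq (by omega) _) ?_)
  rw [show k + 3 - 1 = k + 2 by omega] at e1
  nlinarith

lemma pair_lt {q a : ℕ} (hq : 1 < q) : (q ^ a - 1) * (q ^ (a + 1) + 1) < q ^ (a + (a + 1)) := by
  have h1 : 1 ≤ q ^ a := Nat.one_le_pow _ _ (by omega)
  obtain ⟨b, hb⟩ := Nat.exists_eq_add_of_le h1
  have e1 : q ^ (a + 1) = (1 + b) * q := by rw [pow_succ, hb]
  have e2 : q ^ (a + (a + 1)) = (1 + b) * ((1 + b) * q) := by rw [pow_add, e1, hb]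
  rw [e2, e1, hb, show 1 + b - 1 = b by omega]
  nlinarith

lemma comb_le {q P R E a b : ℕ} (h1 : P ≤ q ^ E) (h2 : R ≤ q ^ (a + b)) : P * R ≤ q ^ (E + a + b) := by
  rw [add_assoc, pow_add]; exact Nat.mul_le_mul h1 h2

lemma comb_lt {q P R E a b : ℕ} (hq : 1 < q) (h1 : P ≤ q ^ E) (h2 : R < q ^ (a + b)) : P * R < q ^ (E + a + b) := by
  rw [add_assoc, pow_add]
  exact lt_of_le_of_lt (Nat.mul_le_mul_right _ h1) (Nat.mul_lt_mul_of_pos_left h2 (pow_pos (by omega) _))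

/-- the cofactor for unitary groups -/
def gU (q i : ℕ) : ℕ := if Even i then q ^ (i + 1) + 1 else q ^ (i + 1) - 1

lemma prod_U_even {q : ℕ} (hq : 1 < q) (j : ℕ) : ∏ i ∈ range (2 * j), gU q (i + 1) ≤ q ^ (∑ i ∈ range (2 * j), (i + 2)) := by
  induction j with
  | zero => simp
  | succ j ih =>
    rw [show 2 * (j + 1) = 2 * j + 1 + 1 by ring, Finset.prod_range_succ, Finset.prod_range_succ, Finset.sum_range_succ,
      Finset.sum_range_succ]
    have h1 : ¬ Even (2 * j + 1) := by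
      intro h; exact Nat.not_even_bit1 j h
    have h2 : Even (2 * j + 1 + 1) := ⟨j + 1, by ring⟩
    have e1 : gU q (2 * j + 1) = q ^ (2 * j + 2) - 1 := by unfold gU; rw [if_neg h1]
    have e2 : gU q (2 * j + 1 + 1) = q ^ (2 * j + 2 + 1) + 1 := by unfold gU; rw [if_pos h2]
    rw [e1, e2, mul_assoc]
    exact comb_le ih (pair_lt hq).le

lemma prod_U_lt {q : ℕ} (hq : 1 < q) {k : ℕ} (hk : 0 < k) : ∏ i ∈ range k, gU q (i + 1) < q ^ (∑ i ∈ range k, (i + 2)) := by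
  rcases Nat.even_or_odd' k with ⟨j, rfl | rfl⟩
  · obtain ⟨j, rfl⟩ : ∃ i, j = i + 1 := ⟨j - 1, by omega⟩
    rw [show 2 * (j + 1) = 2 * j + 1 + 1 by ring, Finset.prod_range_succ, Finset.prod_range_succ, Finset.sum_range_succ,
      Finset.sum_range_succ]
    have h1 : ¬ Even (2 * j + 1) := by
      intro h; exact Nat.not_even_bit1 j h
    have h2 : Even (2 * j + 1 + 1) := ⟨j + 1, by ring⟩
    have e1 : gU q (2 * j + 1) = q ^ (2 * j + 2) - 1 := by unfold gU; rw [if_neg h1]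
    have e2 : gU q (2 * j + 1 + 1) = q ^ (2 * j + 2 + 1) + 1 := by unfold gU; rw [if_pos h2]
    rw [e1, e2, mul_assoc]
    exact comb_lt hq (prod_U_even hq j) (pair_lt hq)
  · rw [Finset.prod_range_succ, Finset.sum_range_succ, pow_add]
    have h1 : ¬ Even (2 * j + 1) := by
      intro h; exact Nat.not_even_bit1 j h
    have e1 : gU q (2 * j + 1) = q ^ (2 * j + 2) - 1 := by unfold gU; rw [if_neg h1]
    rw [e1]
    exact lt_of_le_of_lt (Nat.mul_le_mul_right _ (prod_U_even hq j)) (Nat.mul_lt_mul_of_pos_left (sub_one_lt hq) (pow_pos (by omega) _))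

/-- unitary groups -/
lemma bd_U {p f n X c : ℕ} (hp : p.Prime) (hf : 1 ≤ f) (hn : 3 ≤ n) (hX : 0 < X) (hc : 0 < c) (hcp : Nat.Coprime c p)
    (h : c * ((p ^ f + 1) * X) = (p ^ f) ^ (n * (n - 1) / 2) *
      ∏ i ∈ range n, (if Even i then (p ^ f) ^ (i + 1) + 1 else (p ^ f) ^ (i + 1) - 1)) : Bd p X := by
  have hq : 1 < p ^ f := Nat.one_lt_pow (by omega) hp.one_lt
  obtain ⟨k, rfl⟩ := Nat.exists_eq_add_of_le' hn
  rw [Finset.prod_range_succ', zero_add, pow_one, if_pos (by decide : Even 0)] at h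
  have h1 : c * X = (p ^ f) ^ ((k + 3) * (k + 3 - 1) / 2) * ∏ i ∈ range (k + 2), gU (p ^ f) (i + 1) := by
    apply Nat.eq_of_mul_eq_mul_left (show 0 < p ^ f + 1 by omega)
    calc (p ^ f + 1) * (c * X) = c * ((p ^ f + 1) * X) := by ring
      _ = _ := by rw [h]; unfold gU; ring
  have e1 := sum_id2 (k + 3)
  have e2 := sum_add2 (k + 2)
  have e3 : (k + 3) * (k + 3 - 1) / 2 = ∑ i ∈ range (k + 3), i := by omega
  refine bd_of hp hX hc hcp h1 (cube_lt hq (E := ∑ i ∈ range (k + 2), (i + 2)) (prod_U_lt hq (by omega)) ?_)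
  rw [e3]
  rw [show k + 3 - 1 = k + 2 by omega] at e1
  nlinarith

/-- products of two bounds -/
lemma mul_lt' {a b x y q : ℕ} (hq : 1 < q) (h1 : a < q ^ x) (h2 : b ≤ q ^ y) : a * b < q ^ (x + y) := by
  rw [pow_add]
  exact lt_of_le_of_lt (Nat.mul_le_mul_left a h2) (Nat.mul_lt_mul_of_pos_right h1 (pow_pos (by omega) _))

lemma sub_one_le {q k : ℕ} : q ^ k - 1 ≤ q ^ k := Nat.sub_le _ _

end Cfsg.Agent.H83b.LieOrd
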